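import Mathlib
import Cfsg.Agent.Lib.Lead.Ami.Defs

/-!
# Project AMI (S4294, Amitsur) -- the group-theoretic top part ("AMI-TOP")

Interface: one `Prop` per package.  Paper proofs: helper48's notes on topic `AMI`.

Concrete matrices in `SL(2,5)`: `mA = [[0,-1],[1,0]]` (order 4), `mX = [[1,0],[1,1]]` (order 5),
`mA⁻¹ * mX` has order 6, and `mK = mX^2 * mA * mX^3 * mA * mX^2` is an element of order 4
anticommuting with `mA` (a quaternion pair).
-/

namespace Cfsg.Agent.Lib.Helper48.AmiTop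

open Cfsg.Agent.Lib.Lead.Ami

universe u

/-- `SL(2,5)`. -/
abbrev SL25 := Matrix.SpecialLinearGroup (Fin 2) (ZMod 5)

/-- the matrix `[[0,-1],[1,0]]` of order 4. -/
def mA : SL25 := ⟨!![0, -1; 1, 0], by decide⟩

/-- the matrix `[[1,0],[1,1]]` of order 5. -/
def mX : SL25 := ⟨!![1, 0; 1, 1], by decide⟩

/-- the word `X² A X³ A X²` (equal to `[[0,3],[3,0]]`), of order 4, anticommuting with `mA`. -/
def mK : SL25 := mX ^ 2 * mA * mX ^ 3 * mA * mX ^ 2

/-- [MBASIC] basic relations between the three matrices (`-1` is the central involution). -/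
def PkgMBasic : Prop :=
  mA * mA = (-1 : SL25) ∧ (mA⁻¹ * mX) ^ 3 = (-1 : SL25) ∧ mX ^ 5 = 1 ∧ mX ≠ 1 ∧
  (-1 : SL25) ≠ 1 ∧ (-1 : SL25) * (-1 : SL25) = 1 ∧
  mK * mK = (-1 : SL25) ∧ mA * mK = (-1 : SL25) * (mK * mA)

/-- [MF3] every element of order 5 of `SL(2,5)` is conjugate to `mX` or to `mX ^ 2`. -/
def PkgMF3 : Prop :=
  ∀ M : SL25, M ^ 5 = 1 → M ≠ 1 → ∃ h : SL25, M = h * mX * h⁻¹ ∨ M = h * mX ^ 2 * h⁻¹

/-- [MF5] the elements `M` with `M² = -1` and `(M⁻¹ X)³ = -1` are the `X^m A X^-m`. -/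
def PkgMF5 : Prop :=
  ∀ M : SL25, M * M = (-1 : SL25) → (M⁻¹ * mX) ^ 3 = (-1 : SL25) →
    ∃ m : ℕ, M = mX ^ m * mA * (mX ^ m)⁻¹

/-- [MF6] only `±1` commute with both `mA` and `mX`. -/
def PkgMF6 : Prop :=
  ∀ M : SL25, M * mA = mA * M → M * mX = mX * M → M = 1 ∨ M = (-1 : SL25)

/-- [MF8] an element inverting `mX` has square `-1`. -/
def PkgMF8 : Prop :=
  ∀ M : SL25, M * mX * M⁻¹ = mX⁻¹ → M * M = (-1 : SL25)

/-- [OCT] ring core of the index-2 case: no `x` of order 5 and `y` with `y x y⁻¹ = x²`,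
`y⁴ = -1` in a division ring of characteristic zero (explicit zero divisors). -/
def PkgOct : Prop :=
  ∀ (D : Type u) [DivisionRing D] [CharZero D] (x y : D),
    x ^ 5 = 1 → x ≠ 1 → y * x = x ^ 2 * y → y ^ 4 = -1 → False

/-- [MCORE] ring core of `M = 1`: `a` of order 4, `x` of order 5 with `a⁻¹ x` of order 6
(so `a, x` generate a copy of `SL(2,5)`), the quaternion partner `x² a x³ a x²` of `a`, and
`c` of prime order `p ≥ 7` commuting with `a` and `x`: impossible in characteristic zero. -/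
def PkgMCore : Prop :=
  ∀ (D : Type u) [DivisionRing D] [CharZero D] (a x c : D) (p : ℕ), p.Prime → 7 ≤ p →
    a * a = -1 → (a⁻¹ * x) ^ 3 = -1 → x ^ 5 = 1 → x ≠ 1 →
    (x ^ 2 * a * x ^ 3 * a * x ^ 2) * (x ^ 2 * a * x ^ 3 * a * x ^ 2) = -1 →
    a * (x ^ 2 * a * x ^ 3 * a * x ^ 2) = -((x ^ 2 * a * x ^ 3 * a * x ^ 2) * a) →
    Commute c a → Commute c x → c ^ p = 1 → c ≠ 1 → False

/-- [TOPM] in characteristic zero the factor `M` of `S × M` is trivial. -/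
def PkgTopM : Prop :=
  ∀ (D : Type u) [DivisionRing D] [CharZero D] (H : Subgroup Dˣ) (S M : Subgroup ↥H),
    (∀ s ∈ S, ∀ x ∈ M, s * x = x * s) → Nonempty (↥S ≃* SL25) → Finite ↥M →
    (Nat.card ↥M).Coprime 30 → M = ⊥

/-- [T2K1] index-2 case, `g ∉ S` centralizing the element of order 5: impossible. -/
def PkgT2K1 : Prop :=
  ∀ (D : Type u) [DivisionRing D] [CharZero D] (H : Subgroup Dˣ) (S : Subgroup ↥H)
    (e : ↥S ≃* SL25), S.Normal → (∀ g : ↥H, g * g ∈ S) →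
    ∀ g : ↥H, g ∉ S → g * ((e.symm mX : ↥S) : ↥H) = ((e.symm mX : ↥S) : ↥H) * g → False

/-- [T2K2] index-2 case, `y` conjugating the element `x` of order 5 to `x²`: impossible. -/
def PkgT2K2 : Prop :=
  ∀ (D : Type u) [DivisionRing D] [CharZero D] (H : Subgroup Dˣ) (S : Subgroup ↥H)
    (e : ↥S ≃* SL25), S.Normal → (∀ g : ↥H, g * g ∈ S) →
    ∀ y : ↥H, y * ((e.symm mX : ↥S) : ↥H) * y⁻¹ = ((e.symm mX : ↥S) : ↥H) ^ 2 → False

/-- [TOP2] in characteristic zero `SL(2,5)` is not a normal subgroup of index 2 of a subgroup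
of `Dˣ`. -/
def PkgTop2 : Prop :=
  ∀ (D : Type u) [DivisionRing D] [CharZero D] (H : Subgroup Dˣ) (S : Subgroup ↥H),
    S.Normal → S.index = 2 → Nonempty (↥S ≃* SL25) → False

/-- [CHARP] in positive characteristic a finite subgroup of `Dˣ` is commutative
(its `𝔽_p`-span is a finite domain, hence a field by Wedderburn). -/
def PkgCharP : Prop :=
  ∀ (D : Type u) [DivisionRing D] (p : ℕ) [Fact p.Prime] [CharP D p] (H : Subgroup Dˣ),
    Finite ↥H → ∀ a ∈ H, ∀ b ∈ H, a * b = b * a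

end Cfsg.Agent.Lib.Helper48.AmiTop
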