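import Mathlib
import Cfsg.Agent.Lib.Helper48.Ami.TopDefs

/-!
# Project AMI (S4294): the finite matrix facts in `SL(2,5)` (kernel `decide`)
-/

namespace Cfsg.Agent.Lib.Helper48.AmiTop

set_option maxRecDepth 1000000 in
theorem pkgMBasic : PkgMBasic := by
  unfold PkgMBasic mK
  decide

set_option maxRecDepth 1000000 in
theorem pkgMF6 : PkgMF6 := by
  unfold PkgMF6
  decide

set_option maxRecDepth 1000000 in
theorem pkgMF8 : PkgMF8 := by
  unfold PkgMF8
  decide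

set_option maxRecDepth 1000000 in
theorem mf5_aux : ∀ M : SL25, M * M = (-1 : SL25) → (M⁻¹ * mX) ^ 3 = (-1 : SL25) →
    ∃ m : Fin 5, M = mX ^ (m : ℕ) * mA * (mX ^ (m : ℕ))⁻¹ := by
  decide

theorem pkgMF5 : PkgMF5 := by
  intro M h1 h2
  obtain ⟨m, hm⟩ := mf5_aux M h1 h2
  exact ⟨m, hm⟩

set_option maxRecDepth 1000000 in
theorem pkgMF3 : PkgMF3 := by
  unfold PkgMF3
  decide

end Cfsg.Agent.Lib.Helper48.AmiTop
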