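import Mathlib
import Cfsg.Agent.Lib.Helper48.Ami.TopDefs

/-!
# Project AMI (S4294): package [TOP2] from [T2K1], [T2K2] and the matrix facts
-/

namespace Cfsg.Agent.Lib.Helper48.AmiTop

universe u

theorem pkgTop2_of (hB : PkgMBasic) (h3 : PkgMF3) (h1 : PkgT2K1.{u}) (h2 : PkgT2K2.{u}) :
    PkgTop2.{u} := by
  intro D _ _ H S hSn hidx ⟨e⟩
  have hsq : ∀ g : ↥H, g * g ∈ S := fun g => Subgroup.mul_self_mem_of_index_two hidx g
  have hne : S ≠ ⊤ := by
    intro h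
    rw [h, Subgroup.index_top] at hidx
    norm_num at hidx
  obtain ⟨g, hg⟩ : ∃ g : ↥H, g ∉ S := by
    by_contra hcon
    push_neg at hcon
    exact hne ((Subgroup.eq_top_iff' S).mpr hcon)
  obtain ⟨-, -, hX5, hX1, -, -, -, -⟩ := hB
  have hx5 : (e.symm mX) ^ 5 = 1 := by
    apply e.injective
    simp [hX5]
  have hx1 : e.symm mX ≠ 1 := by
    intro h
    apply hX1
    have := congrArg e h
    simpa using this
  have hx' : g * ((e.symm mX : ↥S) : ↥H) * g⁻¹ ∈ S := hSn.conj_mem _ (e.symm mX).2 g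
  have h5 : (e ⟨g * ((e.symm mX : ↥S) : ↥H) * g⁻¹, hx'⟩) ^ 5 = 1 := by
    rw [← map_pow]
    have : (⟨g * ((e.symm mX : ↥S) : ↥H) * g⁻¹, hx'⟩ : ↥S) ^ 5 = 1 := by
      apply Subtype.ext
      have h5' : ((e.symm mX : ↥S) : ↥H) ^ 5 = 1 := by
        have := congrArg (Subtype.val) hx5
        simpa using this
      simp only [SubgroupClass.coe_pow, OneMemClass.coe_one]
      rw [conj_pow, h5']
      simp
    rw [this, map_one]
  have hne1 : e ⟨g * ((e.symm mX : ↥S) : ↥H) * g⁻¹, hx'⟩ ≠ 1 := by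
    intro h
    have h' : (⟨g * ((e.symm mX : ↥S) : ↥H) * g⁻¹, hx'⟩ : ↥S) = 1 := by
      apply e.injective
      simpa using h
    have h'' : g * ((e.symm mX : ↥S) : ↥H) * g⁻¹ = 1 := by
      have := congrArg (Subtype.val) h'
      simpa using this
    apply hx1
    apply Subtype.ext
    have : ((e.symm mX : ↥S) : ↥H) = g⁻¹ * (g * ((e.symm mX : ↥S) : ↥H) * g⁻¹) * g := by group
    rw [this, h'']
    simp
  obtain ⟨h, hh | hh⟩ := h3 _ h5 hne1
  · -- conjugate to `mX`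
    have key : g * ((e.symm mX : ↥S) : ↥H) * g⁻¹
        = ((e.symm h : ↥S) : ↥H) * ((e.symm mX : ↥S) : ↥H) * ((e.symm h : ↥S) : ↥H)⁻¹ := by
      have : (⟨g * ((e.symm mX : ↥S) : ↥H) * g⁻¹, hx'⟩ : ↥S)
          = e.symm h * e.symm mX * (e.symm h)⁻¹ := by
        apply e.injective
        simp [hh]
      have := congrArg (Subtype.val) this
      simpa using this
    have hg1 : ((e.symm h : ↥S) : ↥H)⁻¹ * g ∉ S := by
      intro hmem
      apply hg
      have : g = ((e.symm h : ↥S) : ↥H) * (((e.symm h : ↥S) : ↥H)⁻¹ * g) := by group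
      rw [this]
      exact S.mul_mem (e.symm h).2 hmem
    apply h1 D H S e hSn hsq _ hg1
    have : ((e.symm mX : ↥S) : ↥H)
        = ((e.symm h : ↥S) : ↥H)⁻¹ * (g * ((e.symm mX : ↥S) : ↥H) * g⁻¹)
            * ((e.symm h : ↥S) : ↥H) := by
      rw [key]; group
    calc ((e.symm h : ↥S) : ↥H)⁻¹ * g * ((e.symm mX : ↥S) : ↥H)
        = (((e.symm h : ↥S) : ↥H)⁻¹ * (g * ((e.symm mX : ↥S) : ↥H) * g⁻¹)
            * ((e.symm h : ↥S) : ↥H)) * (((e.symm h : ↥S) : ↥H)⁻¹ * g) := by group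
      _ = ((e.symm mX : ↥S) : ↥H) * (((e.symm h : ↥S) : ↥H)⁻¹ * g) := by rw [← this]
  · -- conjugate to `mX ^ 2`
    have key : g * ((e.symm mX : ↥S) : ↥H) * g⁻¹
        = ((e.symm h : ↥S) : ↥H) * ((e.symm mX : ↥S) : ↥H) ^ 2 * ((e.symm h : ↥S) : ↥H)⁻¹ := by
      have : (⟨g * ((e.symm mX : ↥S) : ↥H) * g⁻¹, hx'⟩ : ↥S)
          = e.symm h * (e.symm mX) ^ 2 * (e.symm h)⁻¹ := by
        apply e.injective
        simp [hh]
      have := congrArg (Subtype.val) this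
      simpa using this
    apply h2 D H S e hSn hsq (((e.symm h : ↥S) : ↥H)⁻¹ * g)
    calc ((e.symm h : ↥S) : ↥H)⁻¹ * g * ((e.symm mX : ↥S) : ↥H) * (((e.symm h : ↥S) : ↥H)⁻¹ * g)⁻¹
        = ((e.symm h : ↥S) : ↥H)⁻¹ * (g * ((e.symm mX : ↥S) : ↥H) * g⁻¹)
            * ((e.symm h : ↥S) : ↥H) := by group
      _ = ((e.symm mX : ↥S) : ↥H) ^ 2 := by rw [key]; group

end Cfsg.Agent.Lib.Helper48.AmiTop
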